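import Mathlib
import Cfsg.Agent.Lib.Helper56.TC
import Cfsg.Agent.Lib.Helper56.TCFast
import Cfsg.Agent.Lib.Helper56.ME7U1.DA0
set_option autoImplicit false
set_option maxRecDepth 1000000

namespace Cfsg.Agent.Lib.Helper56.ME7U1

open Cfsg.Agent.Lib.Helper56.TC Cfsg.Agent.Lib.Helper56.TC.Tabs

noncomputable def nA : List (List ℕ) := [nA0]

noncomputable def fA : List (List ℕ) := [fA0]

/-- The certificate data. -/
noncomputable def T : Tabs where
  K := 2
  N := 3
  N' := 3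
  INF := 3
  fuel := 1
  inv := fun l => l
  tg := slotFld2 nA 682 24 16777215 2 8 8 3 (fun _ => 0)
  rk := slotFld2 nA 682 24 16777215 2 8 10 3
    (fun x => Nat.rec (motive := fun _ => ℕ) 0 (fun _ _ => 3) x)
  jc := slotFld2 nA 682 24 16777215 2 8 12 15
    (fun x => Nat.rec (motive := fun _ => ℕ) 3 (fun _ _ => 0) x)
  dd := fldA nA 682 24 16777215 0 3
  dl := fldA nA 682 24 16777215 2 1
  qj := fldA nA 682 24 16777215 3 1
  mp := fldA nA 682 24 16777215 4 3
  mt := fldA nA 682 24 16777215 6 3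
  tb := tbFld2 fA 1365 12 4095 2 8 3
  rels1 := [[0, 1, 0, 1, 0, 1]]
  subs := [[0]]
  rx := [[0, 1, 0, 1, 0, 1],
    [0, 2]]
  RB := 7
  tpl := fldA fA 1365 12 4095 0 1
  tdep := fldA fA 1365 12 4095 1 3
  ol := fldA fA 1365 12 4095 3 1
  oc := fldA fA 1365 12 4095 4 1
  op := fldA fA 1365 12 4095 5 3
  odep := fldA fA 1365 12 4095 7 1
  orep := fun c => Tabs.nth 0 [0, 1] c

end Cfsg.Agent.Lib.Helper56.ME7U1
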